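import Mathlib

/-!
Two groups generated by sets of elements permuted in the same way by seven of them have isomorphic central quotients.
-/

set_option autoImplicit false

namespace CfsgLib.Fischer.M23Recog.Fi22Type

variable {X : Type*} [Group X] {n k : ℕ} {S : Fin n → X} {g : Fin k → Fin n} {K : Fin k → Fin n → Fin n}

/-- Elements `S` permuted by some of them by the table `K`. -/
structure PermModel (S : Fin n → X) (g : Fin k → Fin n) (K : Fin k → Fin n → Fin n) : Prop where
  inj : Function.Injective S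
  conj : ∀ j i, S (g j) * S i * (S (g j))⁻¹ = S (K j i)

/-- The pairs of an element and the permutation it induces. -/
def graph (S : Fin n → X) : Subgroup (X × Equiv.Perm (Fin n)) where
  carrier := {p | ∀ i, p.1 * S i * p.1⁻¹ = S (p.2 i)}
  one_mem' := by intro i; simp
  mul_mem' := by
    intro p q hp hq i
    show p.1 * q.1 * S i * (p.1 * q.1)⁻¹ = S (p.2 (q.2 i))
    rw [← hp, ← hq]
    group
  inv_mem' := by
    intro p hp i
    show p.1⁻¹ * S i * p.1⁻¹⁻¹ = S (p.2⁻¹ i)
    have h := hp (p.2⁻¹ i)
    rw [← Equiv.Perm.mul_apply, mul_inv_cancel, Equiv.Perm.one_apply] at h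
    rw [← h]
    group

theorem PermModel.injective (M : PermModel S g K) (j : Fin k) : Function.Injective (K j) := fun a b h => by
  have e := congrArg S h
  rw [← M.conj, ← M.conj] at e
  exact M.inj (mul_left_cancel (mul_right_cancel e))

/-- The permutation of a table row. -/
noncomputable def rowPerm (hK : ∀ j, Function.Injective (K j)) (j : Fin k) : Equiv.Perm (Fin n) :=
  Equiv.ofBijective (K j) (Finite.injective_iff_bijective.1 (hK j))

theorem PermModel.closure_eq (M : PermModel S g K) (via : Fin n → Fin k) (src : Fin n → Fin n) (rk : Fin n → ℕ)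
    (htree : ∀ i, (∃ j, g j = i) ∨ K (via i) (src i) = i ∧ rk (src i) < rk i) :
    Subgroup.closure (Set.range fun j => S (g j)) = Subgroup.closure (Set.range S) := by
  refine le_antisymm (Subgroup.closure_mono ?_) ((Subgroup.closure_le _).2 ?_)
  · rintro _ ⟨j, rfl⟩; exact ⟨g j, rfl⟩
  rintro _ ⟨i, rfl⟩
  induction h : rk i using Nat.strong_induction_on generalizing i with
  | _ m ih =>
    rcases htree i with ⟨j, rfl⟩ | ⟨he, hlt⟩
    · exact Subgroup.subset_closure ⟨j, rfl⟩
    · rw [← he, ← M.conj]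
      have h1 : S (g (via i)) ∈ Subgroup.closure (Set.range fun j => S (g j)) := Subgroup.subset_closure ⟨via i, rfl⟩
      exact mul_mem (mul_mem h1 (ih _ (h ▸ hlt) _ rfl)) (inv_mem h1)

/-- The central quotient of the group generated is the permutation group generated by the rows. -/
theorem PermModel.nonempty_quot (M : PermModel S g K) (hK : ∀ j, Function.Injective (K j))
    (hgen : Subgroup.closure (Set.range fun j => S (g j)) = Subgroup.closure (Set.range S)) :
    Nonempty ((↥(Subgroup.closure (Set.range S)) ⧸ Subgroup.center ↥(Subgroup.closure (Set.range S))) ≃*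
      ↥(Subgroup.closure (Set.range (rowPerm hK)))) := by
  classical
  set H := Subgroup.closure (Set.range S)
  set G2 := Subgroup.closure (Set.range (rowPerm hK))
  let Γ : Subgroup (X × Equiv.Perm (Fin n)) := Subgroup.closure (Set.range fun j => (S (g j), rowPerm hK j))
  have hΓ : Γ ≤ graph S := by
    refine (Subgroup.closure_le _).2 ?_
    rintro _ ⟨j, rfl⟩ i
    exact M.conj j i
  have hfst : Γ.map (MonoidHom.fst X (Equiv.Perm (Fin n))) = H := by
    rw [MonoidHom.map_closure, ← Set.range_comp, ← hgen]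
    rfl
  have hsnd : Γ.map (MonoidHom.snd X (Equiv.Perm (Fin n))) = G2 := by
    rw [MonoidHom.map_closure, ← Set.range_comp]
    rfl
  have hex : ∀ x : H, ∃ π : Equiv.Perm (Fin n), ((x : X), π) ∈ Γ := fun x => by
    have hx : (x : X) ∈ Γ.map (MonoidHom.fst X (Equiv.Perm (Fin n))) := by rw [hfst]; exact x.2
    obtain ⟨⟨a, π⟩, hp, he⟩ := hx
    exact ⟨π, show ((x : X), π) ∈ Γ by rwa [← he]⟩
  choose π hπ using hex
  have huniq : ∀ (x : X) (σ τ : Equiv.Perm (Fin n)), (x, σ) ∈ Γ → (x, τ) ∈ Γ → σ = τ := fun x σ τ h1 h2 =>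
    Equiv.ext fun i => M.inj ((hΓ h1 i).symm.trans (hΓ h2 i))
  have hmem : ∀ x : H, π x ∈ G2 := fun x => hsnd ▸ ⟨_, hπ x, rfl⟩
  let f : H →* G2 := MonoidHom.mk' (fun x => ⟨π x, hmem x⟩) fun x y =>
    Subtype.ext (huniq _ _ _ (hπ (x * y)) (Γ.mul_mem (hπ x) (hπ y)))
  have hsurj : Function.Surjective f := by
    rintro ⟨σ, hσ⟩
    rw [← hsnd] at hσ
    obtain ⟨⟨a, σ'⟩, hp, rfl⟩ := hσ
    have ha : a ∈ H := hfst ▸ ⟨_, hp, rfl⟩
    exact ⟨⟨a, ha⟩, Subtype.ext (huniq _ _ _ (hπ ⟨a, ha⟩) hp)⟩
  have hker : f.ker = Subgroup.center H := by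
    ext x
    rw [MonoidHom.mem_ker, Subgroup.mem_center_iff]
    constructor
    · intro hx
      have h1 : π x = 1 := congrArg Subtype.val hx
      have hc : ∀ i, S i * x = x * S i := fun i => by
        have h := hΓ (hπ x) i
        simp only [h1, Equiv.Perm.one_apply, mul_inv_eq_iff_eq_mul] at h
        exact h.symm
      intro y
      apply Subtype.ext
      have hy : (y : X) ∈ Subgroup.centralizer ({(x : X)} : Set X) := by
        refine (Subgroup.closure_le _).2 ?_ y.2
        rintro _ ⟨i, rfl⟩
        exact Subgroup.mem_centralizer_singleton_iff.2 (hc i)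
      exact Subgroup.mem_centralizer_singleton_iff.1 hy
    · intro hx
      refine Subtype.ext (Equiv.ext fun i => M.inj ?_)
      have h : (x : X) * S i * (x : X)⁻¹ = S (π x i) := hΓ (hπ x) i
      have hc : S i * (x : X) = x * S i :=
        congrArg Subtype.val (hx ⟨S i, Subgroup.subset_closure ⟨i, rfl⟩⟩)
      show S (π x i) = S i
      rw [← h, ← hc, mul_inv_cancel_right]
  exact ⟨(QuotientGroup.quotientMulEquivOfEq hker.symm).trans (QuotientGroup.quotientKerEquivOfSurjective f hsurj)⟩

end CfsgLib.Fischer.M23Recog.Fi22Type
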