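import Cfsg.Agent.Lib.Fischer.M23Recog.Fi22Type.Data
import Cfsg.Agent.Lib.Fischer.M23Recog.Fi22Type.Perm
import Cfsg.Agent.Lib.Fischer.Refl3

/-!
The 126 reflections of norm one of the six-dimensional orthogonal space of minus type over the field with three
elements, permuted by seven of them according to the table.
-/

set_option autoImplicit false
set_option maxRecDepth 4000

namespace CfsgLib.Fischer.M23Recog.Fi22Type

open CfsgLib.OrthGen CfsgLib.SporRecognition.CosetCert

abbrev V6 := Fin 6 → ZMod 3

theorem act7_ok : allBelow 3 7 (fun j => allBelow 7 126 fun i => Nat.blt (act7 j i) 126) = true := by decide +kernel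

theorem gen7_ok : allBelow 3 7 (fun j => Nat.blt (gen7 j) 126) = true := by decide +kernel

/-- The action of the seven. -/
noncomputable def K7 (j : Fin 7) (i : Fin 126) : Fin 126 :=
  ⟨act7 j i, Nat.le_of_ble_eq_true (allBelow_spec (allBelow_spec act7_ok j j.2) i i.2)⟩

/-- The seven. -/
noncomputable def g7 (j : Fin 7) : Fin 126 := ⟨gen7 j, Nat.le_of_ble_eq_true (allBelow_spec gen7_ok j j.2)⟩

/-- The vector of an index. -/
noncomputable def vec (i : Fin 126) : V6 := fun k => (vecEntry i k : ZMod 3)

/-- The norm. -/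
def nrm (v : V6) : ZMod 3 := ∑ k, v k * v k

/-- The scalar product. -/
def dot (v w : V6) : ZMod 3 := ∑ k, v k * w k

/-- The index of a vector in base three. -/
def code (v : V6) : Nat := ∑ k, (v k).val * 3 ^ (k : ℕ)

/-- The form. -/
noncomputable def form : QuadraticForm (ZMod 3) V6 :=
  QuadraticMap.weightedSumSquares (ZMod 3) (fun _ : Fin 6 => (1 : ZMod 3))

theorem form_apply (v : V6) : form v = nrm v := by
  rw [form, QuadraticMap.weightedSumSquares_apply]
  simp [nrm]

theorem form_polar (v w : V6) : QuadraticMap.polar (⇑form) v w = 2 * dot v w := by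
  rw [QuadraticMap.polar, form_apply, form_apply, form_apply, nrm, nrm, nrm, dot, Finset.mul_sum,
    ← Finset.sum_sub_distrib, ← Finset.sum_sub_distrib]
  exact Finset.sum_congr rfl fun k _ => by simp only [Pi.add_apply]; ring

theorem form_nondegenerate : (QuadraticMap.polarBilin form).Nondegenerate := by
  have key : ∀ x : V6, (∀ y, 2 * dot x y = 0) → x = 0 := by
    intro x hx
    funext i
    have h := hx (Pi.single i 1)
    simp only [dot, Pi.single_apply, mul_ite, mul_one, mul_zero, Finset.sum_ite_eq', Finset.mem_univ, if_true] at h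
    exact (mul_eq_zero.1 h).resolve_left (by decide)
  refine ⟨fun x hx => key x fun y => ?_, fun x hx => key x fun y => ?_⟩
  · rw [← form_polar]; exact hx y
  · rw [← form_polar, QuadraticMap.polar_comm]; exact hx y

theorem form_det : Cfsg.polarGramDet (⇑form) = 1 := by
  have h : (Matrix.of fun i j : Fin 6 => QuadraticMap.polar (⇑form) (Pi.single i 1) (Pi.single j 1)) =
      Matrix.diagonal (fun _ => (2 : ZMod 3)) := by
    ext i j
    rw [Matrix.of_apply, form_polar, Matrix.diagonal_apply]
    revert i j
    decide +kernel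
  rw [Cfsg.polarGramDet, h, Matrix.det_diagonal, Finset.prod_const, Finset.card_univ, Fintype.card_fin]
  decide

theorem nrm_vec : ∀ i, nrm (vec i) = 1 := by decide +kernel

theorem form_vec (i : Fin 126) : form (vec i) ≠ 0 := by
  rw [form_apply, nrm_vec]; decide

theorem cover : ∀ v : V6, nrm v = 1 → ∃ h : ofCode (code v) < 126,
    v = vec ⟨_, h⟩ ∨ v = (2 : ZMod 3) • vec ⟨_, h⟩ := by decide +kernel

theorem vec_inj : ∀ i j, vec i = vec j ∨ vec i = (2 : ZMod 3) • vec j → i = j := by decide +kernel

theorem step : ∀ j i,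
    vec i - (2 * dot (vec (g7 j)) (vec i)) • vec (g7 j) = vec (K7 j i) ∨
      vec i - (2 * dot (vec (g7 j)) (vec i)) • vec (g7 j) = (2 : ZMod 3) • vec (K7 j i) := by decide +kernel

/-- The reflection of an index, in the reflection group. -/
noncomputable def rr (i : Fin 126) : ↥(Cfsg.isometryGroup (ZMod 3) (⇑form)) := refl form (form_vec i)

theorem refl_eq_of {v : V6} (hv : form v ≠ 0) (i : Fin 126) (h : v = vec i ∨ v = (2 : ZMod 3) • vec i) :
    refl form hv = rr i := by
  rcases h with rfl | rfl
  · rfl
  · exact refl_smul (Q := form) (form_vec i) (by decide)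

theorem closure_rr : Subgroup.closure (Set.range rr) = Cfsg.reflectionSubgroup (⇑form) 1 := by
  refine le_antisymm ((Subgroup.closure_le _).2 ?_) ((Subgroup.closure_le _).2 ?_)
  · rintro _ ⟨i, rfl⟩
    exact CfsgLib.Fischer.Refl3.refl_mem (form_vec i) (by rw [form_apply, nrm_vec])
  · intro g hg
    obtain ⟨v, hv, h1, rfl⟩ := (CfsgLib.Fischer.Refl3.mem_iff (by decide)).1 hg
    rw [form_apply] at h1
    obtain ⟨hlt, hor⟩ := cover v h1
    exact Subgroup.subset_closure ⟨_, (refl_eq_of hv _ hor).symm⟩

theorem rr_inj : Function.Injective rr := by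
  intro i j h
  have h1 := congrArg (fun g => act form g (vec i)) h
  simp only [rr] at h1
  rw [act_refl_self, act_refl, form_apply, nrm_vec, inv_one, one_mul, pf, form_polar] at h1
  apply vec_inj
  have key : ∀ (a b : V6) (t : ZMod 3), -a = a - t • b → a = t • ((2 : ZMod 3) • b) := by
    intro a b t hab
    funext k
    have e := congrFun hab k
    simp only [Pi.neg_apply, Pi.sub_apply, Pi.smul_apply, smul_eq_mul] at e ⊢
    exact (show ∀ x y t : ZMod 3, -x = x - t * y → x = t * (2 * y) by decide) _ _ _ e
  have hk := key _ _ _ h1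
  have hne : vec i ≠ 0 := fun h0 => form_vec i (by rw [h0, QuadraticMap.map_zero])
  generalize 2 * dot (vec j) (vec i) = t at hk
  fin_cases t
  · exact absurd (hk.trans (zero_smul _ _)) hne
  · exact Or.inr (hk.trans (one_smul _ _))
  · exact Or.inl (hk.trans (by
      show (2 : ZMod 3) • (2 : ZMod 3) • vec j = vec j
      rw [smul_smul, show (2 : ZMod 3) * 2 = 1 by decide, one_smul]))

theorem rr_model : PermModel rr g7 K7 := by
  refine ⟨rr_inj, fun j i => ?_⟩
  rw [rr, rr, conj_refl]
  refine refl_eq_of _ _ ?_
  rw [act_refl, form_apply, nrm_vec, inv_one, one_mul, pf, form_polar]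
  exact step j i

end CfsgLib.Fischer.M23Recog.Fi22Type
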